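import Cfsg.Agent.Lib.PStab.QuadraticPair
import Mathlib.FieldTheory.Finite.Basic
import Mathlib.Algebra.Polynomial.AlgebraMap
import Mathlib.LinearAlgebra.FiniteDimensional.Defs
set_option autoImplicit false

/-! Two quadratic linear maps over a finite field whose product has its semisimple eigenvalues in that
field: a homomorphism into `SL(2, K)`. -/

namespace Cfsg.Agent.Lib.PStab

open Polynomial
open scoped MatrixGroups

variable {K : Type*} [Field K] {W : Type*} [AddCommGroup W] [Module K W]

theorem exists_eigen_of_prod (T : Module.End K W) (P : W → Prop)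
    (hP : ∀ (f : K[X]) (w : W), P w → P (aeval T f w)) (l : Multiset K) :
    ∀ w : W, w ≠ 0 → P w → aeval T ((l.map fun r => X - C r).prod) w = 0 →
      ∃ r ∈ l, ∃ v, v ≠ 0 ∧ P v ∧ T v = r • v := by
  induction l using Multiset.induction_on with
  | empty =>
    intro w hw _ h
    simp at h
    exact absurd h hw
  | cons r l ih =>
    intro w hw hPw h
    by_cases h0 : aeval T ((l.map fun r => X - C r).prod) w = 0
    · obtain ⟨r', hr', rest⟩ := ih w hw hPw h0
      exact ⟨r', Multiset.mem_cons_of_mem hr', rest⟩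
    · refine ⟨r, Multiset.mem_cons_self r l, _, h0, hP _ _ hPw, sub_eq_zero.mp ?_⟩
      rw [Multiset.map_cons, Multiset.prod_cons, map_mul, Module.End.mul_apply] at h
      simpa [map_sub, Module.algebraMap_end_apply] using h

variable [Fintype K] {p : ℕ} [hp : Fact p.Prime] [CharP K p] [Finite W] [Nontrivial W]
  {H : Type*} [Group H] [Finite H]

theorem exists_hom_sl2_of_eigen (ρ : H →* Module.End K W) (hρ : Function.Injective ρ) {x y : H}
    (hgen : Subgroup.closure {x, y} = ⊤) (hx : (ρ x - 1) * (ρ x - 1) = 0)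
    (hy : (ρ y - 1) * (ρ y - 1) = 0) (hnp : ¬ IsPGroup p H)
    (hk : ∃ e k : ℕ, orderOf (x * y) = p ^ e * k ∧ k ∣ Fintype.card K - 1) :
    ∃ χ : H →* SL(2, K), ¬ IsPGroup p χ.range := by
  classical
  haveI : Finite (Module.End K W) :=
    Finite.of_injective (fun f : Module.End K W => (⇑f : W → W)) DFunLike.coe_injective
  haveI : Nontrivial (Module.End K W) := by
    obtain ⟨w, hw⟩ := exists_ne (0 : W)
    exact ⟨⟨1, 0, fun h => hw (LinearMap.congr_fun h w)⟩⟩
  have hp0 : (p : Module.End K W) = 0 := by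
    rw [← map_natCast (algebraMap K (Module.End K W)), CharP.cast_eq_zero, map_zero]
  haveI : CharP (Module.End K W) p := (CharP.charP_iff_prime_eq_zero hp.out).mpr hp0
  obtain ⟨n, hprime, hq⟩ := FiniteField.card K p
  set q := Fintype.card K with hqdef
  have hq2 : 2 ≤ q := Fintype.one_lt_card
  set a := ρ x - 1 with hadef
  set b := ρ y - 1 with hbdef
  set c := a * b + b * a with hc
  have hρx : ρ x = 1 + a := by rw [hadef]; abel
  have hρy : ρ y = 1 + b := by rw [hbdef]; abel
  have hnil : ∀ N, c ^ N ≠ 0 := fun N h => hnp fun k => by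
    obtain ⟨m, hm⟩ := pow_eq_one_of_nilpotent hp0 ρ hgen hx hy h k
    exact ⟨m, hρ (by rw [map_pow, hm, map_one])⟩
  have hinv : ∀ (g : H) (r : Module.End K W), ρ g = 1 + r → r * r = 0 → ρ g⁻¹ = 1 - r := by
    intro g r hg hr
    calc ρ g⁻¹ = ρ g⁻¹ * ((1 + r) * (1 - r)) := by
          rw [show (1 + r) * (1 - r) = 1 by rw [mul_sub, mul_one, add_mul, one_mul, hr, add_zero, add_sub_cancel_right],
            mul_one]
      _ = 1 - r := by rw [← mul_assoc, ← hg, ← map_mul, inv_mul_cancel, map_one, one_mul]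
  have hcu : c = (ρ (x * y) - 1) + (ρ (x * y)⁻¹ - 1) := by
    rw [mul_inv_rev, map_mul, map_mul, hinv x a hρx hx, hinv y b hρy hy, hρx, hρy, hc]
    noncomm_ring
  obtain ⟨e, k, hord, hkq⟩ := hk
  have hj : ∀ j : ℕ, (ρ (x * y) - 1 + (ρ (x * y)⁻¹ - 1)) ^ q ^ j =
      (ρ ((x * y) ^ q ^ j) - 1) + (ρ ((x * y) ^ q ^ j)⁻¹ - 1) := by
    intro j
    have hcomm : Commute (ρ (x * y)) (ρ (x * y)⁻¹) := (Commute.refl (x * y)).inv_right.map ρ
    rw [hq, ← pow_mul, add_pow_char_pow_of_commute p _
      ((hcomm.sub_left (Commute.one_left _)).sub_right (Commute.one_right _)),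
      sub_pow_char_pow_of_commute p _ (Commute.one_right _),
      sub_pow_char_pow_of_commute p _ (Commute.one_right _), one_pow, ← map_pow, ← map_pow, inv_pow]
  set c' := c ^ q ^ e with hc'
  have hc'val : c' = (ρ ((x * y) ^ q ^ e) - 1) + (ρ ((x * y) ^ q ^ e)⁻¹ - 1) := by
    rw [hc', hcu, hj]
  have hgq : (x * y) ^ q ^ (e + 1) = (x * y) ^ q ^ e := by
    have hdvd : orderOf (x * y) ∣ q ^ e * (q - 1) := by
      rw [hord, hq]
      refine mul_dvd_mul ?_ (hq ▸ hkq)
      rw [← pow_mul]
      exact pow_dvd_pow p (Nat.le_mul_of_pos_left e n.2)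
    rw [show q ^ (e + 1) = q ^ e + q ^ e * (q - 1) by
      rw [pow_succ, Nat.mul_sub, mul_one, Nat.add_sub_cancel' (Nat.le_mul_of_pos_right _ (by omega))],
      pow_add, orderOf_dvd_iff_pow_eq_one.mp hdvd, mul_one]
  have hc'q : c' ^ q = c' := by
    rw [hc', ← pow_mul, ← pow_succ, hcu, hj, hj, hgq]
  obtain ⟨w, hw⟩ : ∃ w, c' w ≠ 0 := by
    by_contra h
    push Not at h
    exact hnil _ (LinearMap.ext h : c' = 0)
  have hfix : (c' ^ (q - 1)) (c' w) = c' w := by
    rw [← Module.End.mul_apply, ← pow_succ, show q - 1 + 1 = q by omega, hc'q]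
  have hprod : ((Finset.univ : Finset K).val.map fun r => X - C r).prod = X ^ q - X := by
    have hdeg : (X ^ q - X : K[X]).natDegree = q := FiniteField.X_pow_card_sub_X_natDegree_eq K hq2
    have hmonic : (X ^ q - X : K[X]).Monic :=
      monic_X_pow_sub (by rw [degree_X]; exact_mod_cast hq2)
    rw [← FiniteField.roots_X_pow_card_sub_X]
    exact prod_multiset_X_sub_C_of_monic_of_roots_card_eq hmonic (by
      rw [FiniteField.roots_X_pow_card_sub_X, hdeg]; rfl)
  obtain ⟨r, -, v, hv, hPv, hTv⟩ := exists_eigen_of_prod c' (fun z => (c' ^ (q - 1)) z = z)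
    (fun f z hz => by
      have : (c' ^ (q - 1)) * aeval c' f = aeval c' f * c' ^ (q - 1) := by
        rw [← aeval_X_pow (R := K) c', ← map_mul, ← map_mul, mul_comm]
      show (c' ^ (q - 1)) (aeval c' f z) = aeval c' f z
      rw [← Module.End.mul_apply, this, Module.End.mul_apply, hz]) _ (c' w) hw hfix
    (by rw [hprod, map_sub, map_pow, aeval_X, hc'q, sub_self]; rfl)
  have hr : r ≠ 0 := by
    rintro rfl
    rw [zero_smul] at hTv
    apply hv
    rw [← hPv, show q - 1 = (q - 2) + 1 by omega, pow_succ, Module.End.mul_apply, hTv, map_zero]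
  -- an eigenvector of `c`
  obtain ⟨u₀, hu₀, hcu₀⟩ : ∃ u, u ≠ 0 ∧ c u = r • u := by
    set D := c - r • (1 : Module.End K W) with hD
    have hDq : (D ^ q ^ e) v = 0 := by
      have : D ^ q ^ e = c' - r • (1 : Module.End K W) := by
        rw [hD, hq, ← pow_mul, sub_pow_char_pow_of_commute p _ ((Commute.one_right c).smul_right r),
          _root_.smul_pow, one_pow, pow_mul p, ← hq, FiniteField.pow_card_pow]
      rw [this, LinearMap.sub_apply, hTv, LinearMap.smul_apply, Module.End.one_apply, sub_self]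
    have key : ∀ j, (D ^ j) v = 0 → ∃ u, u ≠ 0 ∧ c u = r • u := by
      intro j
      induction j with
      | zero => intro h; simp at h; exact absurd h hv
      | succ j ih =>
        intro h
        by_cases h0 : (D ^ j) v = 0
        · exact ih h0
        · refine ⟨_, h0, sub_eq_zero.mp ?_⟩
          rw [pow_succ', Module.End.mul_apply] at h
          simpa [D] using h
    exact key _ hDq
  have hca : c * a = a * c := by
    rw [hc, add_mul, mul_add, mul_assoc b a a, hx, mul_zero, add_zero, ← mul_assoc a a b, hx, zero_mul,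
      zero_add, mul_assoc]
  obtain ⟨u, hu, hau, hcu'⟩ : ∃ u, u ≠ 0 ∧ a u = 0 ∧ c u = r • u := by
    by_cases h : a u₀ = 0
    · exact ⟨u₀, hu₀, h, hcu₀⟩
    · refine ⟨a u₀, h, by rw [← Module.End.mul_apply, hx]; rfl, ?_⟩
      rw [← Module.End.mul_apply, hca, Module.End.mul_apply, hcu₀, map_smul]
  have habu : a (b u) = r • u := by
    rw [← hcu']
    show a (b u) = (a * b + b * a) u
    rw [LinearMap.add_apply, Module.End.mul_apply, Module.End.mul_apply, hau, map_zero, add_zero]
  have hbbu : b (b u) = 0 := by rw [← Module.End.mul_apply, hy]; rfl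
  let ι : (Fin 2 → K) →ₗ[K] W :=
    (LinearMap.proj 0).smulRight u + (LinearMap.proj 1).smulRight (b u)
  have hι : ∀ w : Fin 2 → K, ι w = w 0 • u + w 1 • b u := fun w => rfl
  have hιinj : Function.Injective ι := by
    rw [injective_iff_map_eq_zero]
    intro w hw
    rw [hι] at hw
    have h2 := congrArg a hw
    rw [map_add, map_smul, map_smul, hau, smul_zero, zero_add, habu, map_zero, smul_smul] at h2
    have h1 : w 1 = 0 := (mul_eq_zero.mp ((smul_eq_zero.mp h2).resolve_right hu)).resolve_right hr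
    rw [h1, zero_smul, add_zero] at hw
    have h0 : w 0 = 0 := (smul_eq_zero.mp hw).resolve_right hu
    ext i; fin_cases i <;> assumption
  let Rep : H → SL(2, K) → Prop := fun g M =>
    ∀ w, ρ g (ι w) = ι (Matrix.mulVec (M : Matrix (Fin 2) (Fin 2) K) w)
  have huniq : ∀ g M M', Rep g M → Rep g M' → M = M' := by
    intro g M M' h h'
    apply Subtype.ext
    ext i j
    have e := congrFun (hιinj ((h (Pi.single j 1)).symm.trans (h' (Pi.single j 1)))) i
    simpa using e
  have hmul : ∀ g g' M M', Rep g M → Rep g' M' → Rep (g * g') (M * M') := by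
    intro g g' M M' h h' w
    rw [map_mul, Module.End.mul_apply, h', h, Matrix.SpecialLinearGroup.coe_mul, ← Matrix.mulVec_mulVec]
  have hone : Rep 1 1 := fun w => by simp
  have hx' : Rep x (ux r) := by
    intro w
    rw [hρx, LinearMap.add_apply, Module.End.one_apply, hι, hι, map_add, map_smul, map_smul, hau, habu]
    simp [coe_ux, Matrix.mulVec, dotProduct, Fin.sum_univ_two]
    module
  have hy' : Rep y (uy 1) := by
    intro w
    rw [hρy, LinearMap.add_apply, Module.End.one_apply, hι, hι, map_add, map_smul, map_smul, hbbu]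
    simp [coe_uy, Matrix.mulVec, dotProduct, Fin.sum_univ_two]
    module
  have hclos : Submonoid.closure ({x, y} : Set H) = ⊤ := by
    rw [← Subgroup.closure_toSubmonoid_of_finite, hgen, Subgroup.top_toSubmonoid]
  have hex : ∀ g : H, ∃ M, Rep g M := by
    intro g
    have hg : g ∈ Submonoid.closure ({x, y} : Set H) := hclos ▸ Submonoid.mem_top g
    induction hg using Submonoid.closure_induction with
    | mem g hg =>
      rcases hg with rfl | hg
      · exact ⟨_, hx'⟩
      · rw [Set.mem_singleton_iff.mp hg]; exact ⟨_, hy'⟩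
    | one => exact ⟨1, hone⟩
    | mul g g' _ _ hg hg' => exact ⟨_, hmul _ _ _ _ hg.choose_spec hg'.choose_spec⟩
  let χ : H →* SL(2, K) :=
    { toFun := fun g => (hex g).choose
      map_one' := huniq 1 _ 1 (hex 1).choose_spec hone
      map_mul' := fun g g' => huniq (g * g') _ _ (hex (g * g')).choose_spec
        (hmul _ _ _ _ (hex g).choose_spec (hex g').choose_spec) }
  have hχx : χ x = ux r := huniq x _ _ (hex x).choose_spec hx'
  have hχy : χ y = uy 1 := huniq y _ _ (hex y).choose_spec hy'
  refine ⟨χ, fun hpg => ?_⟩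
  obtain ⟨m, hm⟩ := hpg ⟨χ x * χ y, x * y, map_mul χ x y⟩
  have hypow : uy (1 : K) ^ p = 1 := by
    have : ∀ i : ℕ, uy (1 : K) ^ i = uy (i : K) := fun i => by
      induction i with
      | zero => simp [uy_zero]
      | succ i ih => rw [pow_succ, ih, uy_mul]; simp
    rw [this, CharP.cast_eq_zero, uy_zero]
  have hm' : (χ x * χ y) ^ p ^ m = 1 := congrArg Subtype.val hm
  rw [hχx, hχy] at hm'
  have h00 := congrArg (fun t : SL(2, K) => (t : Matrix (Fin 2) (Fin 2) K) 0 0)
    (commute_of_pElem (p := p) (ux_pow_p r) hypow (pow_p_of_pow_pow hm')).eq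
  simp [coe_ux, coe_uy, mul_apply_two] at h00
  exact hr h00

end Cfsg.Agent.Lib.PStab
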